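import Mathlib
import Cfsg.Agent.Lib.Helper6.BG.S1437Defs
import Cfsg.Agent.Lib.Helper67.BG.Basics

/-!
# S1437 package PK10 (helper35): a normal Sylow `q`-subgroup `Q` of `M_σ` that is normal in `M`
lies in `M_F`

`Q` is a normal nilpotent subgroup of `M`; its index in `M` is `|M_σ : Q| · |M : M_σ|`, and `q`
divides neither factor (`q ∈ σ(M)` and `M_σ` is a Hall `σ(M)`-subgroup of `M` by S1350).
-/

set_option autoImplicit false

namespace Cfsg.Agent.Lib.Helper35.BG37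

open Cfsg

universe u

theorem pk10 : Cfsg.Agent.Lib.Helper6.BG37.PK10.{u} := by
  intro G _ _ hG h1350 M hM q hq Q hQS hQ1 hQq hQsyl hMQ
  have : Fact q.Prime := ⟨hq⟩
  have hSM : sigmaCore M ≤ M := Cfsg.Agent.Lib.Helper67.BG.sigmaCore_le M
  have hQM : Q ≤ M := hQS.trans hSM
  have hqQ : q ∣ Nat.card Q := Cfsg.Agent.Lib.Helper67.BG.dvd_card_of_isPGroup_ne_bot hQq hQ1
  have hqσ : q ∈ sigma M :=
    Cfsg.Agent.Lib.Helper67.BG.sigmaCore_isPi M q hq (hqQ.trans (Subgroup.card_dvd_of_le hQS))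
  have hqSM : ¬ q ∣ (sigmaCore M).relIndex M := (h1350 M hM).1.2.2 q hq hqσ
  have hqQM : ¬ q ∣ Q.relIndex M := by
    rw [← Subgroup.relIndex_mul_relIndex Q (sigmaCore M) M hQS hSM]
    intro h
    rcases (Nat.Prime.dvd_mul hq).mp h with h | h
    · exact hQsyl h
    · exact hqSM h
  have hnormal : (Q.subgroupOf M).Normal :=
    (Subgroup.normal_subgroupOf_iff_le_normalizer hQM).mpr hMQ
  have hQ' : IsPGroup q ↥(Q.subgroupOf M) :=
    hQq.comap_of_injective M.subtype M.subtype_injective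
  have hnil : Group.IsNilpotent ↥(Q.subgroupOf M) := hQ'.isNilpotent
  have hcop : (Nat.card ↥(Q.subgroupOf M)).Coprime (Q.subgroupOf M).index := by
    obtain ⟨n, hn⟩ := IsPGroup.iff_card.mp hQ'
    rw [hn]
    apply Nat.Coprime.pow_left
    exact (Nat.Prime.coprime_iff_not_dvd hq).mpr hqQM
  have hle : Q.subgroupOf M ≤ fittingHall ↥M := le_sSup ⟨hnormal, hnil, hcop⟩
  intro x hx
  exact ⟨⟨x, hQM hx⟩, hle (Subgroup.mem_subgroupOf.mpr hx), rfl⟩

end Cfsg.Agent.Lib.Helper35.BG37
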