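import Mathlib
import Cfsg.Agent.Lib.Helper6.BG.S1437Defs
import Cfsg.Agent.Lib.Helper67.BG.S1357Core
import Cfsg.Agent.Lib.Helper67.BG.FitUtil
import Cfsg.Agent.Lib.Helper67.BG.Basics

/-!
# S1437 package PK9 (helper35): `q ∈ β(M)`

If `q ∉ β(M)` then S1414 gives a normal `q`-complement of `M_σ`; it is a complement of the normal
Sylow `q`-subgroup `Q`, hence nilpotent, so `M_σ = Q D` is a product of two normal nilpotent
subgroups and therefore nilpotent.
-/

set_option autoImplicit false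

namespace Cfsg.Agent.Lib.Helper35.BG37

open Cfsg

universe u

theorem pk9 : Cfsg.Agent.Lib.Helper6.BG37.PK9.{u} := by
  intro G _ _ hG h1414 M hM q hq hqM Q hQS hQq hQsyl hSQ hDnil hnn
  by_contra hβ
  have : Fact q.Prime := ⟨hq⟩
  obtain ⟨P, N, hNn, hNP⟩ := ((h1414 M hM).2.2.2.2 q hq hqM hβ).2.1
  have hPQ : (P : Subgroup ↥(sigmaCore M)).map (sigmaCore M).subtype ≤ Q :=
    Cfsg.Agent.Lib.Helper67.BG.le_of_normal_sylow hQS hSQ hQq hQsyl (Subgroup.map_subtype_le _)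
      (P.isPGroup'.map _)
  -- the normal complement, as a subgroup of `G`
  have hDS : N.map (sigmaCore M).subtype ≤ sigmaCore M := Subgroup.map_subtype_le _
  have hcardD : Nat.card ↥(N.map (sigmaCore M).subtype) = (P : Subgroup ↥(sigmaCore M)).index := by
    rw [Subgroup.card_map_of_injective (sigmaCore M).subtype_injective]
    exact (hNP.index_eq_card).symm
  have hqD : ¬ q ∣ Nat.card ↥(N.map (sigmaCore M).subtype) := by
    rw [hcardD]
    exact P.not_dvd_index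
  have hinf : Q ⊓ N.map (sigmaCore M).subtype = ⊥ := by
    have h1 : IsPGroup q ↥(Q ⊓ N.map (sigmaCore M).subtype) := hQq.to_le inf_le_left
    have h2 : Nat.card ↥(Q ⊓ N.map (sigmaCore M).subtype) ∣
        Nat.card ↥(N.map (sigmaCore M).subtype) := Subgroup.card_dvd_of_le inf_le_right
    obtain ⟨n, hn⟩ := IsPGroup.iff_card.mp h1
    rcases Nat.eq_zero_or_pos n with h0 | hpos
    · rw [h0, pow_zero] at hn
      exact (Subgroup.card_eq_one).mp hn
    · exfalso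
      apply hqD
      refine dvd_trans ?_ h2
      rw [hn]
      exact dvd_pow_self q (Nat.pos_iff_ne_zero.mp hpos)
  have hprod : ∀ m ∈ sigmaCore M, ∃ a ∈ Q, ∃ b ∈ N.map (sigmaCore M).subtype, m = a * b := by
    intro m hm
    obtain ⟨⟨⟨n, hn⟩, ⟨p, hp⟩⟩, hnp⟩ := hNP.2 (⟨m, hm⟩⁻¹ : ↥(sigmaCore M))
    have hnp' : n * p = (⟨m, hm⟩⁻¹ : ↥(sigmaCore M)) := hnp
    refine ⟨((p⁻¹ : ↥(sigmaCore M)) : G), hPQ ⟨p⁻¹, inv_mem hp, rfl⟩,
      ((n⁻¹ : ↥(sigmaCore M)) : G), ⟨n⁻¹, inv_mem hn, rfl⟩, ?_⟩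
    have h3 : (⟨m, hm⟩ : ↥(sigmaCore M)) = p⁻¹ * n⁻¹ := by
      rw [← mul_inv_rev, hnp', inv_inv]
    have h4 := congrArg (Subtype.val) h3
    simpa using h4
  have hcompl : IsComplIn Q (N.map (sigmaCore M).subtype) (sigmaCore M) :=
    ⟨hQS, hDS, hinf, hprod⟩
  have hDn : Group.IsNilpotent ↥(N.map (sigmaCore M).subtype) := hDnil _ hcompl
  have hSD : sigmaCore M ≤ Subgroup.normalizer ((N.map (sigmaCore M).subtype : Subgroup G) : Set G) :=
    Cfsg.Agent.Lib.Helper67.BG.le_normalizer_map_subtype (sigmaCore M) N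
  have hQF : Q ≤ fittingOf (sigmaCore M) :=
    Cfsg.Agent.Lib.Helper67.BG.le_fittingOf_of_normal_nilpotent hQS hSQ hQq.isNilpotent
  have hDF : N.map (sigmaCore M).subtype ≤ fittingOf (sigmaCore M) :=
    Cfsg.Agent.Lib.Helper67.BG.le_fittingOf_of_normal_nilpotent hDS hSD hDn
  have hSF : sigmaCore M ≤ fittingOf (sigmaCore M) := by
    intro m hm
    obtain ⟨a, ha, b, hb, rfl⟩ := hprod m hm
    exact mul_mem (hQF ha) (hDF hb)
  have heq : fittingOf (sigmaCore M) = sigmaCore M :=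
    le_antisymm (Cfsg.Agent.Lib.Helper67.BG.fittingOf_le _) hSF
  have hnil := Cfsg.Agent.Lib.Helper67.BG.fittingOf_isNilpotent (sigmaCore M)
  rw [heq] at hnil
  exact hnn hnil

end Cfsg.Agent.Lib.Helper35.BG37
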